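import Mathlib
import Cfsg.Agent.Lib.Basic.Conj

/-!
# Alperin's fusion theorem in terms of tame intersections of Sylow subgroups
-/

set_option autoImplicit false

namespace Cfsg.Agent.Lib.Transfer

open Subgroup
open scoped Pointwise
open Cfsg.Agent.Lib.Basic (mem_conj_smul conj_smul_eq_map conj_smul_inf)

variable {G : Type*} [Group G] {p : ℕ}

/-- The conjugate of a set of elements. -/
def alpCs (g : G) (A : Set G) : Set G := (fun a => g⁻¹ * a * g) '' A

lemma alpCs_mul (g h : G) (A : Set G) : alpCs (g * h) A = alpCs h (alpCs g A) := by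
  simp only [alpCs, Set.image_image]
  congr 1
  funext a
  group

lemma alpCs_one (A : Set G) : alpCs 1 A = A := by simp [alpCs]

lemma alpCs_mono (g : G) {A B : Set G} (h : A ⊆ B) : alpCs g A ⊆ alpCs g B := Set.image_mono h

/-- Tameness of an intersection. -/
def AlpTame (p : ℕ) (P Q : Subgroup G) : Prop :=
  ¬ p ∣ (P ⊓ normalizer ((P ⊓ Q : Subgroup G) : Set G)).relIndex
      (normalizer ((P ⊓ Q : Subgroup G) : Set G)) ∧
  ¬ p ∣ (Q ⊓ normalizer ((P ⊓ Q : Subgroup G) : Set G)).relIndex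
      (normalizer ((P ⊓ Q : Subgroup G) : Set G))

/-- Chains of conjugations through normalizers of tame intersections. -/
inductive AlpChain (P : Sylow p G) : Set G → G → Prop
  | nil (A : Set G) (hA : A ⊆ (P : Subgroup G)) : AlpChain P A 1
  | cons (A : Set G) (Q : Sylow p G) (x g : G)
      (hx : x ∈ normalizer (((P : Subgroup G) ⊓ (Q : Subgroup G) : Subgroup G) : Set G))
      (ht : AlpTame p (P : Subgroup G) Q)
      (hA : A ⊆ (((P : Subgroup G) ⊓ (Q : Subgroup G) : Subgroup G) : Set G))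
      (hg : AlpChain P (alpCs x A) g) : AlpChain P A (x * g)

lemma AlpChain.target {P : Sylow p G} {A : Set G} {g : G} (h : AlpChain P A g) :
    alpCs g A ⊆ (P : Subgroup G) := by
  induction h with
  | nil A hA => rwa [alpCs_one]
  | cons A Q x g hx ht hA hg ih => rwa [alpCs_mul]

lemma AlpChain.mono {P : Sylow p G} {A : Set G} {g : G} (h : AlpChain P A g) :
    ∀ {B : Set G}, B ⊆ A → AlpChain P B g := by
  induction h with
  | nil A hA => exact fun hB => AlpChain.nil _ (hB.trans hA)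
  | cons A Q x g hx ht hA hg ih =>
    exact fun hB => AlpChain.cons _ Q x g hx ht (hB.trans hA) (ih (alpCs_mono x hB))

lemma AlpChain.trans {P : Sylow p G} {A : Set G} {g : G} (h : AlpChain P A g) :
    ∀ {k : G}, AlpChain P (alpCs g A) k → AlpChain P A (g * k) := by
  induction h with
  | nil A hA =>
    intro k hk
    rw [alpCs_one] at hk
    rwa [one_mul]
  | cons A Q x g hx ht hA hg ih =>
    intro k hk
    rw [alpCs_mul] at hk
    rw [mul_assoc]
    exact AlpChain.cons _ Q x _ hx ht hA (ih hk)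

lemma alp_normalizer_conj (u : G) (H : Subgroup G) :
    MulAut.conj u • normalizer (H : Set G) = normalizer ((MulAut.conj u • H : Subgroup G) : Set G) := by
  rw [conj_smul_eq_map, conj_smul_eq_map]
  exact map_equiv_normalizer_eq H (MulAut.conj u)

lemma AlpTame.conj {P Q : Subgroup G} (u : G) (h : AlpTame p P Q) :
    AlpTame p (MulAut.conj u • P) (MulAut.conj u • Q) := by
  have key : ∀ X : Subgroup G,
      ((MulAut.conj u • X) ⊓ normalizer (((MulAut.conj u • P) ⊓ (MulAut.conj u • Q) : Subgroup G) : Set G)).relIndex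
        (normalizer (((MulAut.conj u • P) ⊓ (MulAut.conj u • Q) : Subgroup G) : Set G)) =
      (X ⊓ normalizer ((P ⊓ Q : Subgroup G) : Set G)).relIndex (normalizer ((P ⊓ Q : Subgroup G) : Set G)) := by
    intro X
    rw [← conj_smul_inf, ← alp_normalizer_conj, ← conj_smul_inf, conj_smul_eq_map, conj_smul_eq_map]
    exact relIndex_map_map_of_injective _ _ (MulAut.conj u).injective
  exact ⟨by rw [key]; exact h.1, by rw [key]; exact h.2⟩

lemma AlpChain.conj {P : Sylow p G} {A : Set G} {g : G} (h : AlpChain P A g) (u : G) :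
    AlpChain (u⁻¹ • P) (alpCs u A) (u⁻¹ * g * u) := by
  have hmem : ∀ {S : Sylow p G} {a : G}, a ∈ (S : Subgroup G) →
      u⁻¹ * a * u ∈ ((u⁻¹ • S : Sylow p G) : Subgroup G) := by
    intro S a ha
    rw [Sylow.coe_subgroup_smul, mem_conj_smul]
    simpa [mul_assoc] using ha
  induction h with
  | nil A hA =>
    rw [show u⁻¹ * 1 * u = 1 by group]
    refine AlpChain.nil _ ?_
    rintro _ ⟨a, ha, rfl⟩
    exact hmem (hA ha)
  | cons A Q x g hx ht hA hg ih =>
    rw [show u⁻¹ * (x * g) * u = (u⁻¹ * x * u) * (u⁻¹ * g * u) by group]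
    refine AlpChain.cons _ (u⁻¹ • Q) _ _ ?_ ?_ ?_ ?_
    · rw [Sylow.coe_subgroup_smul, Sylow.coe_subgroup_smul, ← conj_smul_inf, ← alp_normalizer_conj,
        mem_conj_smul]
      simpa [mul_assoc] using hx
    · rw [Sylow.coe_subgroup_smul, Sylow.coe_subgroup_smul]
      exact ht.conj _
    · rintro _ ⟨a, ha, rfl⟩
      exact ⟨hmem (hA ha).1, hmem (hA ha).2⟩
    · have e : alpCs (u⁻¹ * x * u) (alpCs u A) = alpCs u (alpCs x A) := by
        rw [← alpCs_mul, ← alpCs_mul]
        congr 1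
        group
      rw [e]
      exact ih

lemma alp_comp {P R : Sylow p G} {D : Set G} {g₁ g₂ : G} (h₁ : g₁⁻¹ • R = P)
    (c₁ : AlpChain P D g₁) (c₂ : AlpChain R D g₂) : AlpChain P D (g₂ * g₁) := by
  have h2 := c₂.conj g₁
  rw [h₁] at h2
  have h3 := c₁.trans h2
  rwa [show g₁ * (g₁⁻¹ * g₂ * g₁) = g₂ * g₁ by group] at h3

section finite

variable [Finite G] [Fact p.Prime]

lemma alp_card_lt {H K : Subgroup G} (h : H < K) : Nat.card H < Nat.card K := by
  by_contra hc
  exact h.ne (Subgroup.eq_of_le_of_card_ge h.le (not_lt.mp hc))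

lemma alp_lt_normalizer {D S : Subgroup G} (hS : IsPGroup p S) (hD : D < S) :
    D < S ⊓ normalizer (D : Set G) := by
  haveI : Group.IsNilpotent S := hS.isNilpotent
  have h1 : D.subgroupOf S ≠ ⊤ := by
    intro e
    rw [subgroupOf_eq_top] at e
    exact hD.not_ge e
  have h2 := Group.normalizerCondition_of_isNilpotent (G := S) (D.subgroupOf S)
    (lt_top_iff_ne_top.mpr h1)
  rw [← subgroupOf_normalizer_eq hD.le] at h2
  obtain ⟨s, hs, hs'⟩ := SetLike.exists_of_lt h2
  refine lt_of_le_of_ne (le_inf hD.le le_normalizer) ?_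
  intro e
  apply hs'
  have : (s : G) ∈ S ⊓ normalizer (D : Set G) := ⟨s.2, hs⟩
  rw [← e] at this
  exact this

lemma alp_isPGroup_subgroupOf {S M : Subgroup G} (hS : IsPGroup p S) : IsPGroup p (S.subgroupOf M) := by
  rintro ⟨⟨g, hgM⟩, hg⟩
  obtain ⟨k, hk⟩ := hS ⟨g, hg⟩
  refine ⟨k, Subtype.ext (Subtype.ext ?_)⟩
  change g ^ p ^ k = 1
  exact congrArg Subtype.val hk

lemma alp_exists_sylow {S M : Subgroup G} (hS : IsPGroup p S) (hSM : S ≤ M) :
    ∃ (R : Sylow p G) (T : Sylow p M), S ≤ R ∧ (T : Subgroup M) = (R ⊓ M : Subgroup G).subgroupOf M := by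
  obtain ⟨T, hT⟩ := (alp_isPGroup_subgroupOf (M := M) hS).exists_le_sylow
  have hT' : IsPGroup p ((T : Subgroup M).map M.subtype) := T.isPGroup'.map _
  obtain ⟨R, hR⟩ := hT'.exists_le_sylow
  refine ⟨R, T, ?_, ?_⟩
  · intro s hs
    apply hR
    exact ⟨⟨s, hSM hs⟩, hT hs, rfl⟩
  · have hle : (T : Subgroup M) ≤ (R ⊓ M : Subgroup G).subgroupOf M := by
      intro t ht
      exact ⟨hR ⟨t, ht, rfl⟩, t.2⟩
    have hp : IsPGroup p ↥((R ⊓ M : Subgroup G).subgroupOf M) := by
      apply alp_isPGroup_subgroupOf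
      exact R.isPGroup'.to_le inf_le_left
    exact (T.is_maximal' hp hle).symm

lemma alp_not_dvd {R : Sylow p G} {M : Subgroup G} {T : Sylow p M}
    (h : (T : Subgroup M) = (R ⊓ M : Subgroup G).subgroupOf M) :
    ¬ p ∣ (R ⊓ M : Subgroup G).relIndex M := by
  rw [relIndex, ← h]
  exact T.not_dvd_index

lemma alp_ne {P Q : Sylow p G} (h : P ≠ Q) : ((P : Subgroup G) ⊓ Q) < P := by
  refine lt_of_le_of_ne inf_le_left ?_
  intro e
  apply h
  exact Sylow.ext (P.is_maximal' Q.isPGroup' (inf_eq_left.mp e)).symm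

/-- The main step of the fusion theorem. -/
theorem alp_main (P Q : Sylow p G) :
    ∃ g : G, g⁻¹ • Q = P ∧ AlpChain P (((P : Subgroup G) ⊓ (Q : Subgroup G) : Subgroup G) : Set G) g := by
  classical
  induction' hm : Nat.card G - Nat.card ↥((P : Subgroup G) ⊓ (Q : Subgroup G)) using Nat.strong_induction_on
    with m ih generalizing P Q
  have ih' : ∀ P' Q' : Sylow p G, ((P : Subgroup G) ⊓ Q) < ((P' : Subgroup G) ⊓ Q') →
      ∃ g : G, g⁻¹ • Q' = P' ∧ AlpChain P' (((P' : Subgroup G) ⊓ (Q' : Subgroup G) : Subgroup G) : Set G) g := by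
    intro P' Q' hlt
    refine ih (Nat.card G - Nat.card ↥((P' : Subgroup G) ⊓ (Q' : Subgroup G))) ?_ P' Q' rfl
    rw [← hm]
    have h1 := alp_card_lt hlt
    have h2 : Nat.card ↥((P' : Subgroup G) ⊓ (Q' : Subgroup G)) ≤ Nat.card G := by
      exact Subgroup.card_le_card_group _
    omega
  by_cases hPQ : P = Q
  · subst hPQ
    refine ⟨1, by simp, AlpChain.nil _ ?_⟩
    exact fun x hx => hx.1
  set D : Subgroup G := (P : Subgroup G) ⊓ Q with hD
  set M : Subgroup G := normalizer (D : Set G) with hM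
  have hDP : D < P := alp_ne hPQ
  have hDQ : D < Q := by
    rw [hD, inf_comm]
    exact alp_ne (Ne.symm hPQ)
  have hPM : D < (P : Subgroup G) ⊓ M := alp_lt_normalizer P.isPGroup' hDP
  have hQM : D < (Q : Subgroup G) ⊓ M := alp_lt_normalizer Q.isPGroup' hDQ
  obtain ⟨R₁, T₁, h1le, hT₁⟩ := alp_exists_sylow (S := (P : Subgroup G) ⊓ M) (M := M)
    (P.isPGroup'.to_le inf_le_left) inf_le_right
  obtain ⟨R₂, T₂, h2le, hT₂⟩ := alp_exists_sylow (S := (Q : Subgroup G) ⊓ M) (M := M)
    (Q.isPGroup'.to_le inf_le_left) inf_le_right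
  have hDR₁ : D ≤ R₁ := hPM.le.trans h1le
  have hDR₂ : D ≤ R₂ := hQM.le.trans h2le
  -- the step from `P` to `R₁`
  obtain ⟨g₁, hg₁, c₁⟩ := ih' P R₁ (by
    refine lt_of_lt_of_le hPM (le_inf inf_le_left h1le))
  have c₁' : AlpChain P (D : Set G) g₁ := c₁.mono (fun x hx => ⟨hDP.le hx, hDR₁ hx⟩)
  -- the step from `R₂` to `Q`
  obtain ⟨g₃, hg₃, c₃⟩ := ih' R₂ Q (by
    refine lt_of_lt_of_le hQM (le_inf h2le inf_le_left))
  have c₃' : AlpChain R₂ (D : Set G) g₃ := c₃.mono (fun x hx => ⟨hDR₂ hx, hDQ.le hx⟩)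
  -- the step from `R₁` to `R₂`
  have hstep : ∃ g₂ : G, g₂⁻¹ • R₂ = R₁ ∧ AlpChain R₁ (D : Set G) g₂ := by
    have hle : D ≤ (R₁ : Subgroup G) ⊓ R₂ := le_inf hDR₁ hDR₂
    by_cases hlt : D < (R₁ : Subgroup G) ⊓ R₂
    · obtain ⟨g₂, h2, c₂⟩ := ih' R₁ R₂ hlt
      exact ⟨g₂, h2, c₂.mono hle⟩
    · have heq : (R₁ : Subgroup G) ⊓ R₂ = D := by
        by_contra hne
        exact hlt (lt_of_le_of_ne hle (Ne.symm hne))
      obtain ⟨y, hy⟩ := MulAction.exists_smul_eq M T₁ T₂
      have hyG : (y : G) ∈ M := y.2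
      set R₃ : Sylow p G := (y : G)⁻¹ • R₂ with hR₃
      have hR₃mem : ∀ {a : G}, a ∈ (R₃ : Subgroup G) ↔ (y : G) * a * (y : G)⁻¹ ∈ (R₂ : Subgroup G) := by
        intro a
        rw [hR₃, Sylow.coe_subgroup_smul, mem_conj_smul, inv_inv]
      have hmove : (R₁ : Subgroup G) ⊓ M ≤ (R₃ : Subgroup G) := by
        intro t ht
        rw [hR₃mem]
        have h5 : (⟨t, ht.2⟩ : M) ∈ (T₁ : Subgroup M) := by
          rw [hT₁]
          exact ht
        have h6 : y * (⟨t, ht.2⟩ : M) * y⁻¹ ∈ (T₂ : Subgroup M) := by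
          rw [← hy, Sylow.coe_subgroup_smul, Cfsg.Agent.Lib.Basic.mem_conj_smul]
          simpa [mul_assoc] using h5
        rw [hT₂] at h6
        exact h6.1
      have hlt2 : D < (R₁ : Subgroup G) ⊓ R₃ :=
        lt_of_lt_of_le hPM (le_inf h1le ((le_inf h1le inf_le_right).trans hmove))
      obtain ⟨g', hg', c'⟩ := ih' R₁ R₃ hlt2
      refine ⟨y * g', ?_, ?_⟩
      · rw [mul_inv_rev, mul_smul]
        exact hg'
      · refine AlpChain.cons _ R₂ _ _ ?_ ?_ ?_ ?_
        · rw [heq]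
          exact hyG
        · rw [AlpTame, heq]
          exact ⟨alp_not_dvd hT₁, alp_not_dvd hT₂⟩
        · rw [heq]
        · have e : alpCs (y : G) (D : Set G) = (D : Set G) := by
            ext a
            constructor
            · rintro ⟨b, hb, rfl⟩
              have := (mem_normalizer_iff.mp (inv_mem hyG) b).mp hb
              simpa using this
            · intro ha
              refine ⟨(y : G) * a * (y : G)⁻¹, (mem_normalizer_iff.mp hyG a).mp ha, ?_⟩
              group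
          rw [e]
          exact c'.mono (fun x hx => ⟨hDR₁ hx,
            (hPM.le.trans ((le_inf h1le inf_le_right).trans hmove)) hx⟩)
  obtain ⟨g₂, hg₂, c₂⟩ := hstep
  have c₁₂ := alp_comp hg₁ c₁' c₂
  have hg₁₂ : (g₂ * g₁)⁻¹ • R₂ = P := by
    rw [mul_inv_rev, mul_smul, hg₂, hg₁]
  have c₁₂₃ := alp_comp hg₁₂ c₁₂ c₃'
  refine ⟨g₃ * (g₂ * g₁), ?_, c₁₂₃⟩
  rw [mul_inv_rev, mul_smul, hg₃, hg₁₂]

/-- **Alperin's fusion theorem**: every conjugation between subsets of a Sylow subgroup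
is a chain through normalizers of tame intersections. -/
theorem alp_chain_exists (P : Sylow p G) (A : Set G) (g : G) (hA : A ⊆ (P : Subgroup G))
    (hAg : alpCs g A ⊆ (P : Subgroup G)) : AlpChain P A g := by
  classical
  set Q : Sylow p G := g • P with hQ
  have hAQ : A ⊆ (((P : Subgroup G) ⊓ (Q : Subgroup G) : Subgroup G) : Set G) := by
    intro a ha
    refine ⟨hA ha, ?_⟩
    change a ∈ ((g • P : Sylow p G) : Subgroup G)
    rw [Sylow.coe_subgroup_smul, mem_conj_smul]
    exact hAg ⟨a, ha, rfl⟩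
  obtain ⟨h, hh, c⟩ := alp_main P Q
  have c' := c.mono hAQ
  set n : G := h⁻¹ * g with hn
  have hnN : n ∈ normalizer ((P : Subgroup G) : Set G) := by
    apply Sylow.smul_eq_iff_mem_normalizer.mp
    rw [hn, mul_smul, ← hQ, hh]
  have ht : AlpTame p (P : Subgroup G) P := by
    rw [AlpTame, inf_idem, inf_of_le_left le_normalizer]
    have h1 : (P : Subgroup G).relIndex (normalizer ((P : Subgroup G) : Set G)) * (normalizer ((P : Subgroup G) : Set G)).index
        = (P : Subgroup G).index := Subgroup.relIndex_mul_index le_normalizer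
    have h2 : ¬ p ∣ (P : Subgroup G).relIndex (normalizer ((P : Subgroup G) : Set G)) := by
      intro hd
      exact P.not_dvd_index (h1 ▸ hd.mul_right _)
    exact ⟨h2, h2⟩
  have c2 : AlpChain P (alpCs h A) (n * 1) := by
    refine AlpChain.cons _ P _ _ ?_ ht ?_ (AlpChain.nil _ ?_)
    · rwa [inf_idem]
    · rw [inf_idem]
      exact c'.target
    · rintro _ ⟨b, hb, rfl⟩
      have := (mem_normalizer_iff.mp (inv_mem hnN) b).mp (c'.target hb)
      rw [inv_inv] at this
      exact this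
  have c3 := c'.trans c2
  rwa [show h * (n * 1) = g by rw [hn]; group] at c3

end finite

/-- The translation to lists. -/
theorem alp_chain_fin {P : Sylow p G} {A : Set G} {g : G} (h : AlpChain P A g) :
    ∃ (n : ℕ) (Q : Fin n → Sylow p G) (x : Fin n → G), (List.ofFn x).prod = g ∧
      (∀ i : Fin n, x i ∈ normalizer ((((P : Subgroup G) ⊓ (Q i : Subgroup G)) : Subgroup G) : Set G) ∧
        AlpTame p (P : Subgroup G) (Q i)) ∧
      (∀ h : 0 < n, A ⊆ (((P : Subgroup G) ⊓ (Q ⟨0, h⟩ : Subgroup G) : Subgroup G) : Set G)) ∧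
      ∀ i : Fin n, ∀ h : i.val + 1 < n, (fun a => (((List.ofFn x).take (i.val + 1)).prod)⁻¹ * a *
        ((List.ofFn x).take (i.val + 1)).prod) '' A ⊆
        (((P : Subgroup G) ⊓ (Q ⟨i.val + 1, h⟩ : Subgroup G) : Subgroup G) : Set G) := by
  induction h with
  | nil A hA =>
    exact ⟨0, Fin.elim0, Fin.elim0, by simp, fun i => i.elim0, fun h => absurd h (lt_irrefl _),
      fun i => i.elim0⟩
  | cons A Q₀ x₀ g hx ht hA hg ih =>
    obtain ⟨n, Q, x, h1, h2, h3, h4⟩ := ih
    refine ⟨n + 1, Fin.cons Q₀ Q, Fin.cons x₀ x, ?_, ?_, fun _ => hA, ?_⟩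
    · rw [List.ofFn_succ, List.prod_cons]
      simp only [Fin.cons_zero, Fin.cons_succ]
      rw [h1]
    · intro i
      refine Fin.cases ?_ (fun j => ?_) i
      · exact ⟨hx, ht⟩
      · simpa using h2 j
    · intro i hi
      have e : (List.ofFn (Fin.cons x₀ x : Fin (n + 1) → G)) = x₀ :: List.ofFn x := by
        rw [List.ofFn_succ]
        simp only [Fin.cons_zero, Fin.cons_succ]
      rw [e]
      have e2 : ∀ k : ℕ, (fun a => (((x₀ :: List.ofFn x).take (k + 1)).prod)⁻¹ * a *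
          ((x₀ :: List.ofFn x).take (k + 1)).prod) '' A =
          alpCs ((List.ofFn x).take k).prod (alpCs x₀ A) := by
        intro k
        rw [← alpCs_mul]
        simp only [List.take_succ_cons, List.prod_cons]
        rfl
      rw [e2]
      obtain ⟨i, hin⟩ := i
      cases i with
      | zero =>
        have e4 : alpCs ((List.ofFn x).take 0).prod (alpCs x₀ A) = alpCs x₀ A := by
          simp [alpCs_one]
        rw [e4]
        exact h3 (by omega)
      | succ j =>
        exact h4 ⟨j, by omega⟩ (by simpa using hi)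

end Cfsg.Agent.Lib.Transfer
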